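import Cfsg.Agent.Lib.IBr.BlockIBr
import Cfsg.Agent.Lib.CharDegreesTheory.BlockDegrees

/-!
# Degrees in a block and the number of Brauer characters
-/

set_option autoImplicit false
set_option linter.style.haveILetI false

namespace CfsgLib.IBr.PSys.Decomposition

open Cfsg Finset CfsgLib.BrauerCharacters
open scoped ComplexConjugate

universe u

variable {p : ℕ} {M : Ideal AlgInt} {S : PSys p M} {G : Type u} [Group G] [Fintype G]
variable (D : S.Decomposition G)

/-- The rank of a block is at most its number of Brauer characters. -/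
theorem blockRank_le (hG : S.Fits G) (B : Set (IrrCharacter G)) :
    blockRank p B ≤ (D.inBlock B).card := by
  classical
  let W := Submodule.span ℂ (((fun φ => pRegularPart p φ) '' (D.inBlock B : Set (G → ℂ))))
  have hle : Submodule.span ℂ ((fun χ : IrrCharacter G => pRegularPart p (χ : G → ℂ)) '' B) ≤ W := by
    rw [Submodule.span_le]
    rintro _ ⟨χ, hχ, rfl⟩
    have e : pRegularPart p (χ : G → ℂ) =
        ∑ φ ∈ D.inBlock B, (D.num χ φ : ℂ) • pRegularPart p φ := by
      funext g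
      rw [Finset.sum_apply]
      simp only [Pi.smul_apply, smul_eq_mul, pRegularPart_apply]
      by_cases hg : p ∣ orderOf g
      · simp [hg]
      · simp only [if_neg hg]
        rw [← D.sum_inBlock hχ g, (hG.reg_eq_self_iff g).2 hg]
    show pRegularPart p (χ : G → ℂ) ∈ W
    rw [e]
    exact W.sum_mem fun φ hφ => W.smul_mem _ (Submodule.subset_span ⟨φ, hφ, rfl⟩)
  have : blockRank p B ≤ Module.finrank ℂ W := Submodule.finrank_mono hle
  refine this.trans ?_
  show Module.finrank ℂ (Submodule.span ℂ _) ≤ _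
  rw [← Finset.coe_image]
  exact (finrank_span_finset_le_card _).trans Finset.card_image_le

include D in
/-- The degree sum of a block has room for all its Brauer characters. -/
theorem exists_sum_sq_eq [hp : Fact p.Prime] [M.IsPrime] [Fintype (IrrCharacter G)] (hG : S.Fits G)
    {B : Set (IrrCharacter G)} (hB : IsPBlock M B) {g : ℕ}
    (hg : ∀ χ ∈ B, g ∣ charDegree (χ : G → ℂ)) :
    ∃ v : ℕ, blockRank p B ≤ v ∧ ∑ χ ∈ blockFinset B, charDegree (χ : G → ℂ) ^ 2 =
      g * Nat.lcm (p ^ (Nat.card G).factorization p) g * v := by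
  classical
  have hw := weakOrth S.hM hB
  set F := blockFinset B with hF
  have hone : S.reg (1 : G) = 1 := one_pow _
  choose! deg hdeg0 hdeg using D.degree
  let Φ : (G → ℂ) → ℕ := fun φ => ∑ χ ∈ F, D.num χ φ * charDegree (χ : G → ℂ)
  have hdegχ : ∀ χ ∈ B, charDegree (χ : G → ℂ) = ∑ φ ∈ D.inBlock B, D.num χ φ * deg φ := by
    intro χ hχ
    apply Nat.cast_injective (R := ℂ)
    push_cast
    rw [← (charDegree_spec χ).1, ← hone, D.sum_inBlock hχ]
    exact Finset.sum_congr rfl fun φ hφ => by rw [hdeg φ (D.inBlock_subset B hφ)]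
  have hΦp : ∀ φ ∈ D.inBlock B, p ^ (Nat.card G).factorization p ∣ Φ φ := by
    intro φ hφ
    have h0 : ∀ x : G, p ∣ orderOf x →
        ∑ χ ∈ F, (((D.num χ φ : ℕ) : ℤ) : ℂ) * (χ : G → ℂ) x = 0 := by
      intro x hx
      have key : ∀ y, ∑ f ∈ D.irr, conj (∑ χ ∈ F, (D.num χ f : ℂ) * (χ : G → ℂ) x) * f y = 0 := by
        intro y
        have hy : ¬ p ∣ orderOf (S.reg y) := (hG.reg_eq_self_iff _).1 (hG.reg_reg y)
        have h1 := hw _ _ hy hx
        rw [finsum_mem_eq_sum_blockFinset] at h1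
        rw [← h1]
        simp only [map_sum, map_mul, map_natCast, Finset.sum_mul, D.sum_num, ← hF]
        rw [Finset.sum_comm]
        refine Finset.sum_congr rfl fun χ _ => Finset.sum_congr rfl fun f _ => ?_
        ring
      have := D.indep _ key φ (D.inBlock_subset B hφ)
      rw [map_eq_zero] at this
      simpa using this
    have := CfsgLib.CharDegreesTheory.pow_dvd_of_eval F (fun χ => (D.num χ φ : ℤ)) (V := (Φ φ : ℤ))
      (by
        simp only [Φ]
        push_cast
        exact Finset.sum_congr rfl fun χ _ => by rw [(charDegree_spec χ).1]) h0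
    exact_mod_cast this
  have hΦg : ∀ φ, g ∣ Φ φ := fun φ =>
    Finset.dvd_sum fun χ hχ => Dvd.dvd.mul_left (hg χ (mem_blockFinset.1 hχ)) _
  have hdegg : ∀ φ ∈ D.inBlock B, g ∣ deg φ := by
    intro φ hφ
    obtain ⟨a, ha⟩ := D.exists_int_combination hB hφ
    have h1 := ha 1
    rw [hone, hdeg φ (D.inBlock_subset B hφ)] at h1
    have h2 : ((deg φ : ℤ) : ℂ) =
        ((∑ χ ∈ univ.filter (· ∈ B), a χ * (charDegree (χ : G → ℂ) : ℤ) : ℤ) : ℂ) := by
      push_cast
      rw [h1]
      exact Finset.sum_congr rfl fun χ _ => by rw [(charDegree_spec χ).1]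
    rw [← Int.natCast_dvd_natCast, Int.cast_injective h2]
    exact Finset.dvd_sum fun χ hχ =>
      Dvd.dvd.mul_left (Int.natCast_dvd_natCast.2 (hg χ (mem_filter.1 hχ).2)) _
  have hR : ∑ χ ∈ F, charDegree (χ : G → ℂ) ^ 2 = ∑ φ ∈ D.inBlock B, deg φ * Φ φ := by
    simp only [Φ, Finset.mul_sum]
    rw [Finset.sum_comm]
    refine Finset.sum_congr rfl fun χ hχ => ?_
    rw [sq]
    conv_lhs => arg 1; rw [hdegχ χ (mem_blockFinset.1 hχ)]
    rw [Finset.sum_mul]
    exact Finset.sum_congr rfl fun φ _ => by ring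
  have hd : ∀ φ ∈ D.inBlock B, g * Nat.lcm (p ^ (Nat.card G).factorization p) g ∣ deg φ * Φ φ :=
    fun φ hφ => mul_dvd_mul (hdegg φ hφ) (Nat.lcm_dvd (hΦp φ hφ) (hΦg φ))
  choose! v hv using hd
  refine ⟨∑ φ ∈ D.inBlock B, v φ, (D.blockRank_le hG B).trans ?_, by
    rw [hR, Finset.mul_sum]; exact Finset.sum_congr rfl hv⟩
  rw [Finset.card_eq_sum_ones]
  refine Finset.sum_le_sum fun φ hφ => Nat.pos_of_ne_zero fun h0 => ?_
  have h1 := hv φ hφ
  rw [h0, mul_zero] at h1
  obtain ⟨hφi, χ, hχ, hn⟩ := D.mem_inBlock.1 hφ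
  refine (Nat.mul_pos (hdeg0 φ hφi) ?_).ne' h1
  exact Finset.sum_pos' (fun _ _ => Nat.zero_le _)
    ⟨χ, mem_blockFinset.2 hχ, Nat.mul_pos (Nat.pos_of_ne_zero hn) (charDegree_spec χ).2.1⟩

end CfsgLib.IBr.PSys.Decomposition
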