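import Cfsg.Agent.Lib.IBr.SectionNumbers
import Cfsg.Agent.Lib.ZerosCodegree.PowerTwist
import Mathlib.RingTheory.ZMod.UnitsCyclic

/-!
# The number of `p`-rational characters in a block
-/

set_option autoImplicit false
set_option linter.style.haveILetI false
set_option linter.unusedSectionVars false

namespace CfsgLib.IBr

open Cfsg Finset CfsgLib.BrauerCharacters CfsgLib.Blocks CfsgLib.CharTheory CfsgLib.ZerosCodegree
open scoped ComplexConjugate

universe u

variable {p : ℕ} [hp : Fact p.Prime] {M : Ideal AlgInt} [M.IsPrime] {S : PSys p M}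
variable {G : Type u} [Group G] [Fintype G]

namespace PSys

theorem Fits.isPPart_mul_inv (hG : S.Fits G) (x : G) : IsPPart p x (x * (S.reg x)⁻¹) := by
  obtain ⟨a, ha⟩ := S.hq
  have hc : Commute x (S.reg x)⁻¹ := ((Commute.refl x).pow_right S.e).inv_right
  refine ⟨S.reg x, by group, ?_, ?_, (hG.reg_eq_self_iff _).1 (hG.reg_reg x)⟩
  · exact ((Commute.refl x).pow_right S.e).mul_left (Commute.refl (S.reg x)).inv_left
  have hu1 : (x * (S.reg x)⁻¹) ^ S.q = 1 := by
    rw [hc.mul_pow, inv_pow, PSys.reg, ← pow_mul, mul_comm S.e S.q, pow_mul]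
    have h2 : (x ^ S.q) ^ S.e = x ^ S.q := by
      refine S.he.pow_eq_self ?_
      obtain ⟨i, hi⟩ := hG
      rw [← pow_mul, mul_comm, hi, pow_mul, pow_card_eq_one', one_pow]
    rw [h2, mul_inv_cancel]
  rw [ha] at hu1
  obtain ⟨k, -, hk⟩ := (Nat.dvd_prime_pow hp.out).1 (orderOf_dvd_of_pow_eq_one hu1)
  exact ⟨k, hk⟩

theorem Decomposition.mem_powTwist (D : S.Decomposition G) (hG : S.Fits G)
    {B : Set (IrrCharacter G)} (hB : IsPBlock M B) {k : ℕ} (hk : k ≡ 1 [MOD S.m])
    {χ χ' : IrrCharacter G} (hχ : χ ∈ B) (hχ' : (χ' : G → ℂ) = powTwist k (χ : G → ℂ)) :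
    χ' ∈ B := by
  by_contra hnot
  have heq : ∀ φ ∈ D.irr, (D.num χ' φ : ℂ) - (D.num χ φ : ℂ) = 0 := D.indep _ fun g => by
    simp only [sub_mul, Finset.sum_sub_distrib, ← D.sum_num]
    rw [hχ', powTwist_apply, sub_eq_zero]
    exact congrArg _ (by
      conv_rhs => rw [← pow_one (S.reg g)]
      exact pow_eq_pow_iff_modEq.2 (hk.of_dvd (orderOf_dvd_of_pow_eq_one (hG.reg_pow g))))
  have h1 : (χ : G → ℂ) (S.reg 1) ≠ 0 := by
    rw [show S.reg (1 : G) = 1 from one_pow _]
    exact apply_one_ne_zero_of_isIrr χ.2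
  rw [D.sum_num] at h1
  obtain ⟨φ, hφ, hne⟩ := Finset.exists_ne_zero_of_sum_ne_zero h1
  rcases D.block B hB χ hχ χ' hnot φ with h | h
  · exact hne (by rw [h, Nat.cast_zero, zero_mul])
  · have := heq φ hφ
    rw [h, Nat.cast_zero, zero_sub, neg_eq_zero] at this
    exact hne (by rw [this, zero_mul])

end PSys

/-- A block has at least as many characters fixed by a power map fixing the `p'`-roots as its
rank. -/
theorem blockRank_le_card_fixed [Fintype (IrrCharacter G)] (hM : IsPModular p M)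
    {B : Set (IrrCharacter G)} [DecidablePred (· ∈ B)] (hB : IsPBlock M B) (hG : S.Fits G) {k : ℕ}
    (hkn : k.Coprime (Nat.card G)) (hk : k ≡ 1 [MOD S.m]) :
    blockRank p B ≤
      (univ.filter fun χ : IrrCharacter G =>
        χ ∈ B ∧ powTwist k (χ : G → ℂ) = (χ : G → ℂ)).card := by
  classical
  obtain ⟨DG⟩ := PSys.exists_decomposition (S := S) (G := G) hG
  set F := univ.filter fun χ : IrrCharacter G => χ ∈ B with hF
  let F' : G → ℂ := fun x => ∑ χ ∈ F, (χ : G → ℂ) (x ^ k) * conj ((χ : G → ℂ) x)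
  -- the count as a sum over the group
  have hcount : ∑ x, F' x = (Nat.card G : ℂ) *
      ((univ.filter fun χ : IrrCharacter G =>
        χ ∈ B ∧ powTwist k (χ : G → ℂ) = (χ : G → ℂ)).card : ℂ) := by
    have h1 : ∀ χ ∈ F, ∑ x, (χ : G → ℂ) (x ^ k) * conj ((χ : G → ℂ) x) =
        (Nat.card G : ℂ) * if powTwist k (χ : G → ℂ) = (χ : G → ℂ) then 1 else 0 := by
      intro χ _
      let χ' : IrrCharacter G := ⟨_, isIrrCharacter_powTwist hkn χ.2⟩
      have h := classInner_irrCharacter χ' χ
      rw [if_congr Subtype.ext_iff rfl rfl] at h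
      rw [← h, classInner, ← mul_assoc, mul_inv_cancel₀ (Nat.cast_ne_zero.2 Nat.card_pos.ne'),
        one_mul]
      rfl
    simp only [F']
    rw [Finset.sum_comm, Finset.sum_congr rfl h1, ← Finset.mul_sum, Finset.sum_boole, hF,
      Finset.filter_filter]
  -- the fibres over the possible `p`-parts
  let P : G → G := fun x => x * (S.reg x)⁻¹
  have hfib : ∀ y : G, ∃ N : ℕ, ∑ x ∈ univ.filter (fun x => P x = y), F' x =
      (N : ℂ) + if y = 1 then (Nat.card G : ℂ) * (blockRank p B : ℂ) else 0 := by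
    intro y
    by_cases h1 : y = 1
    · subst h1
      refine ⟨0, ?_⟩
      rw [Nat.cast_zero, zero_add, if_pos rfl, ← sum_regInner_self_eq_blockRank (weakOrth hM hB),
        Finset.mul_sum]
      have e : ∀ x, P x = 1 ↔ ¬ p ∣ orderOf x := fun x =>
        isPPart_eq_one_iff (hG.isPPart_mul_inv x)
      rw [Finset.filter_congr fun x _ => e x, Finset.sum_filter]
      simp only [regInner, classInner, pRegularPart_apply, ← mul_assoc,
        mul_inv_cancel₀ (Nat.cast_ne_zero.2 (Nat.card_pos (α := G)).ne' : (Nat.card G : ℂ) ≠ 0),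
        one_mul]
      rw [Finset.sum_comm (s := blockFinset B)]
      refine Finset.sum_congr rfl fun x _ => ?_
      by_cases hx : p ∣ orderOf x
      · simp [hx]
      simp only [if_neg hx, if_pos (not_not.2 trivial), F', hx, not_false_eq_true, if_true]
      have hxk : x ^ k = x := by
        have hx' : x ^ S.m = 1 := by
          rw [← (hG.reg_eq_self_iff x).2 hx]
          exact hG.reg_pow x
        conv_rhs => rw [← pow_one x]
        exact pow_eq_pow_iff_modEq.2 (hk.of_dvd (orderOf_dvd_of_pow_eq_one hx'))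
      rw [hxk]
      exact Finset.sum_congr (by ext χ; simp [hF]) fun _ _ => rfl
    simp only [if_neg h1, add_zero]
    by_cases hne : (univ.filter fun x => P x = y).Nonempty
    swap
    · exact ⟨0, by rw [Finset.not_nonempty_iff_eq_empty.1 hne, Finset.sum_empty, Nat.cast_zero]⟩
    obtain ⟨x₀, hx₀⟩ := hne
    have hpart : ∀ x, P x = y → IsPPart p x y := fun x hx => hx ▸ hG.isPPart_mul_inv x
    obtain ⟨_, -, -, hy, -⟩ := hpart x₀ (mem_filter.1 hx₀).2
    by_cases hconj : IsConj y (y ^ k)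
    swap
    · refine ⟨0, ?_⟩
      rw [Nat.cast_zero]
      refine Finset.sum_eq_zero fun x hx => ?_
      have hxy := hpart x (mem_filter.1 hx).2
      have h := finsum_mul_eq_zero_of_isPBlock hM hB (IsPPart.pow hxy k) hxy
        (fun h => hconj h.symm)
      rw [finsum_mem_eq_sum_blockFinset] at h
      rw [← h]
      refine Finset.sum_congr (by ext χ; simp [hF]) fun χ _ => ?_
      rw [CharTheory.IsIrrCharacter.inv χ.2]
    obtain ⟨c, hc⟩ := isConj_iff.1 hconj
    haveI := Fintype.ofFinite (IrrCharacter (Subgroup.centralizer ({y} : Set G)))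
    have hH : S.Fits (Subgroup.centralizer ({y} : Set G)) := PSys.Fits.subgroup hG _
    obtain ⟨D⟩ := PSys.exists_decomposition (S := S) hH
    have hmem : ∀ s : Subgroup.centralizer ({y} : Set G),
        c⁻¹ * (s : G) * c ∈ Subgroup.centralizer ({y} : Set G) := fun s => by
      rw [Subgroup.mem_centralizer_singleton_iff]
      have h2 : (s : G) * y ^ k = y ^ k * (s : G) :=
        (Commute.pow_right (Subgroup.mem_centralizer_singleton_iff.1 s.2) k).eq
      rw [← hc] at h2
      calc c⁻¹ * (s : G) * c * y = c⁻¹ * ((s : G) * (c * y * c⁻¹)) * c := by group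
        _ = c⁻¹ * ((c * y * c⁻¹) * (s : G)) * c := by rw [h2]
        _ = y * (c⁻¹ * (s : G) * c) := by group
    let α₀ : Subgroup.centralizer ({y} : Set G) →* Subgroup.centralizer ({y} : Set G) :=
      MonoidHom.mk' (fun s => ⟨_, hmem s⟩) fun s t => Subtype.ext (by
        show c⁻¹ * ((s : G) * (t : G)) * c = c⁻¹ * (s : G) * c * (c⁻¹ * (t : G) * c)
        group)
    have hα₀ : Function.Injective α₀ := fun s t h => by
      have h' : c⁻¹ * (s : G) * c = c⁻¹ * (t : G) * c := congrArg Subtype.val h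
      exact Subtype.ext (mul_left_cancel (mul_right_cancel h'))
    let α := MulEquiv.ofBijective α₀ (Finite.injective_iff_bijective.1 hα₀)
    obtain ⟨N, hN⟩ := D.exists_natCast_eq_sum hH hy hB α
    refine ⟨N, ?_⟩
    rw [← hN]
    simp only [Finset.sum_ite, Finset.sum_const_zero, zero_add]
    symm
    refine Finset.sum_bij (fun s _ => ((cenElem y * s : Subgroup.centralizer ({y} : Set G)) : G))
      (fun s hs => ?_) (fun s _ t _ h => ?_) (fun x hx => ?_) fun s hs => ?_
    · simp only [mem_filter, mem_univ, true_and] at hs ⊢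
      refine IsPPart.unique (hG.isPPart_mul_inv _) ⟨(s : G), rfl,
        (Subgroup.mem_centralizer_singleton_iff.1 s.2).symm, hy, ?_⟩
      rwa [Subgroup.orderOf_coe]
    · exact mul_left_cancel (Subtype.ext h : cenElem y * s = cenElem y * t)
    · obtain ⟨z, hz, hzc, -, hzp⟩ := hpart x (mem_filter.1 hx).2
      refine ⟨⟨z, Subgroup.mem_centralizer_singleton_iff.2 hzc.symm.eq⟩, ?_, hz⟩
      simp only [mem_filter, mem_univ, true_and]
      rwa [← Subgroup.orderOf_coe]
    · simp only [mem_filter, mem_univ, true_and] at hs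
      have hsm : ((s : G)) ^ S.m = 1 := by
        have := (hG.reg_eq_self_iff (s : G)).2 (by rwa [Subgroup.orderOf_coe])
        rw [← this]
        exact hG.reg_pow _
      have hsk : (s : G) ^ k = (s : G) := by
        conv_rhs => rw [← pow_one (s : G)]
        exact pow_eq_pow_iff_modEq.2 (hk.of_dvd (orderOf_dvd_of_pow_eq_one hsm))
      have hys : ((cenElem y * s : Subgroup.centralizer ({y} : Set G)) : G) ^ k =
          c * (((cenElem y * α s : Subgroup.centralizer ({y} : Set G)) : G)) * c⁻¹ := by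
        show (y * (s : G)) ^ k = c * (y * (c⁻¹ * (s : G) * c)) * c⁻¹
        rw [(show Commute y (s : G) from (Subgroup.mem_centralizer_singleton_iff.1 s.2).symm).mul_pow,
          hsk, ← hc]
        group
      refine Finset.sum_congr rfl fun χ _ => ?_
      rw [hys, IsIrrCharacter.isClassFunction χ.2 _ c]
  choose N hN using hfib
  have hfinal : (Nat.card G : ℂ) * ((univ.filter fun χ : IrrCharacter G =>
        χ ∈ B ∧ powTwist k (χ : G → ℂ) = (χ : G → ℂ)).card : ℂ) =
      ((∑ y, N y : ℕ) : ℂ) + (Nat.card G : ℂ) * (blockRank p B : ℂ) := by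
    rw [← hcount, ← Finset.sum_fiberwise univ P F', Finset.sum_congr rfl fun y _ => hN y,
      Finset.sum_add_distrib, Finset.sum_ite_eq', if_pos (mem_univ _), Nat.cast_sum]
  have hnat : Nat.card G * (univ.filter fun χ : IrrCharacter G =>
        χ ∈ B ∧ powTwist k (χ : G → ℂ) = (χ : G → ℂ)).card =
      (∑ y, N y) + Nat.card G * blockRank p B := by exact_mod_cast hfinal
  exact Nat.le_of_mul_le_mul_left (hnat ▸ Nat.le_add_left _ _) Nat.card_pos

/-- A single exponent generating those congruent to one modulo the `p'`-part. -/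
theorem exists_generating_exponent (S : PSys p M) (hodd : p ≠ 2) :
    ∃ k₀ : ℕ, k₀.Coprime (S.m * S.q) ∧ k₀ ≡ 1 [MOD S.m] ∧
      ∀ k : ℕ, k.Coprime (S.m * S.q) → k ≡ 1 [MOD S.m] → ∃ j : ℕ, k ≡ k₀ ^ j [MOD S.m * S.q] := by
  obtain ⟨a, ha⟩ := S.hq
  have hcop : Nat.Coprime S.m S.q := S.he.2.2
  haveI : IsCyclic (ZMod S.q)ˣ := ha ▸ ZMod.isCyclic_units_of_prime_pow p hp.out hodd a
  haveI : NeZero S.q := ⟨ha ▸ pow_ne_zero a hp.out.ne_zero⟩
  obtain ⟨g, hg⟩ := IsCyclic.exists_monoid_generator (α := (ZMod S.q)ˣ)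
  obtain ⟨k₀, hk1, hk2⟩ := Nat.chineseRemainder hcop 1 (g : ZMod S.q).val
  refine ⟨k₀, Nat.Coprime.mul_right ?_ ?_, hk1, fun k hk hkm => ?_⟩
  · exact hk1.gcd_eq.trans (Nat.gcd_one_left _)
  · exact hk2.gcd_eq.trans (ZMod.val_coe_unit_coprime g)
  obtain ⟨j, hj⟩ := hg (ZMod.unitOfCoprime k hk.coprime_mul_left_right)
  refine ⟨j, (Nat.modEq_and_modEq_iff_modEq_mul hcop).1 ⟨?_, ?_⟩⟩
  · exact hkm.trans (by simpa only [one_pow] using (hk1.pow j).symm)
  · rw [← ZMod.natCast_eq_natCast_iff, Nat.cast_pow, (ZMod.natCast_eq_natCast_iff _ _ _).2 hk2,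
      ZMod.natCast_zmod_val, ← Units.val_pow_eq_pow_val,
      (show g ^ j = ZMod.unitOfCoprime k hk.coprime_mul_left_right from hj), ZMod.coe_unitOfCoprime]

end CfsgLib.IBr
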