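import Cfsg.Agent.Lib.IBr.BlockIBr
import Cfsg.Agent.Lib.BrauerCharacters.PrincipalSection

/-!
# Decomposition numbers on the section of a `p`-element

For a `p`-element `y` with centralizer `H`, a character of `G` is given on the section of `y`
by the Brauer characters of `H`; a block of `G` meets only its own Brauer characters of `H`,
and over that block the columns are inverse to the pairing of those Brauer characters.
-/

set_option autoImplicit false
set_option linter.style.haveILetI false
set_option linter.unusedSectionVars false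

namespace CfsgLib.IBr.PSys.Decomposition

open Cfsg Finset CfsgLib.BrauerCharacters CfsgLib.Blocks CfsgLib.CharTheory
open scoped ComplexConjugate

universe u

variable {p : ℕ} [hp : Fact p.Prime] {M : Ideal AlgInt} [M.IsPrime] {S : PSys p M}
variable {G : Type u} [Group G] [Fintype G] {y : G}
  [Fintype (Subgroup.centralizer ({y} : Set G))]
  [Fintype (IrrCharacter (Subgroup.centralizer ({y} : Set G)))]
variable (D : S.Decomposition (Subgroup.centralizer ({y} : Set G)))

/-- The decomposition numbers of a character of `G` on the section of `y`. -/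
noncomputable def secNum (χ : IrrCharacter G)
    (φ : Subgroup.centralizer ({y} : Set G) → ℂ) : ℂ :=
  ∑ ξ, (resMult y χ ξ : ℂ) *
    centralVal (ξ : Subgroup.centralizer ({y} : Set G) → ℂ) (cenElem y) * (D.num ξ φ : ℂ)

variable (hH : S.Fits (Subgroup.centralizer ({y} : Set G)))

include hH

theorem apply_mul_reg (ξ : IrrCharacter (Subgroup.centralizer ({y} : Set G)))
    {s : Subgroup.centralizer ({y} : Set G)} (hs : ¬ p ∣ orderOf s) :
    (ξ : Subgroup.centralizer ({y} : Set G) → ℂ) (cenElem y * s) =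
      centralVal (ξ : Subgroup.centralizer ({y} : Set G) → ℂ) (cenElem y) *
        ∑ φ ∈ D.irr, (D.num ξ φ : ℂ) * φ s := by
  rw [(centralVal_spec ξ (commute_cenElem y)).2 s, ← D.sum_num, (hH.reg_eq_self_iff s).2 hs]

/-- A character of `G` on the section of `y`. -/
theorem apply_eq_sum_secNum (χ : IrrCharacter G)
    {s : Subgroup.centralizer ({y} : Set G)} (hs : ¬ p ∣ orderOf s) :
    (χ : G → ℂ) ((cenElem y * s : Subgroup.centralizer ({y} : Set G)) : G) =
      ∑ φ ∈ D.irr, D.secNum χ φ * φ s := by
  rw [res_eq_sum y χ]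
  simp only [secNum, Finset.sum_mul]
  rw [Finset.sum_comm]
  refine Finset.sum_congr rfl fun ξ _ => ?_
  rw [D.apply_mul_reg hH ξ hs, Finset.mul_sum, Finset.mul_sum]
  exact Finset.sum_congr rfl fun φ _ => by ring

variable (hy : ∃ k : ℕ, orderOf y = p ^ k)

include hy

/-- A Brauer character of the centralizer belongs to at most one block of `G`. -/
theorem secNum_eq_zero_or {B : Set (IrrCharacter G)} (hB : IsPBlock M B)
    {χ ψ : IrrCharacter G} (hχ : χ ∈ B) (hψ : ψ ∉ B)
    {φ : Subgroup.centralizer ({y} : Set G) → ℂ} (hφ : φ ∈ D.irr) :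
    D.secNum χ φ = 0 ∨ D.secNum ψ φ = 0 := by
  classical
  by_contra hboth
  rw [not_or] at hboth
  obtain ⟨ξ₀, hξ₀⟩ := D.occurs φ hφ
  set b := blockOf M (ξ₀ : Subgroup.centralizer ({y} : Set G) → ℂ) with hb'
  have hb : IsPBlock M b := isPBlock_blockOf ξ₀
  obtain ⟨B₀, hind⟩ := inducedBlockDefined_centralizer y hy S.hM hb
  have hmem : ∀ η : IrrCharacter G, D.secNum η φ ≠ 0 → η ∈ B₀ := by
    intro η hη
    by_contra hnot
    apply hη
    let a : (Subgroup.centralizer ({y} : Set G) → ℂ) → ℂ := fun f =>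
      ∑ ξ ∈ blockFinset b, (resMult y η ξ : ℂ) *
        centralVal (ξ : Subgroup.centralizer ({y} : Set G) → ℂ) (cenElem y) * (D.num ξ f : ℂ)
    have h0 : a φ = 0 := D.indep a (fun g => by
      have hreg := (hH.reg_eq_self_iff _).1 (hH.reg_reg g)
      have h1 := secPart_eq_zero_of_isInducedBlock y hy S.hM hind hnot hreg
      rw [secPart] at h1
      rw [← h1]
      simp only [a, Finset.sum_mul]
      rw [Finset.sum_comm]
      refine Finset.sum_congr rfl fun ξ _ => ?_
      rw [D.apply_mul_reg hH ξ hreg, Finset.mul_sum, Finset.mul_sum]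
      exact Finset.sum_congr rfl fun f hf => by rw [D.apply_reg f hf]; ring) φ hφ
    rw [← h0]
    refine (Finset.sum_subset (Finset.subset_univ _) fun ξ _ hξ => ?_).symm
    rw [(D.block b hb ξ₀ (mem_blockOf_self ξ₀) ξ (by simpa using hξ) φ).resolve_left hξ₀,
      Nat.cast_zero, mul_zero]
  have h2 := isPBlock_eq_of_mem hB hind.2.1 hχ (hmem χ hboth.1)
  exact hψ (h2 ▸ hmem ψ hboth.2)

/-- Over all characters the columns are inverse to the pairing. -/
theorem sum_secNum_pairing [Fintype (IrrCharacter G)]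
    {φ η : Subgroup.centralizer ({y} : Set G) → ℂ} (hφ : φ ∈ D.irr) (hη : η ∈ D.irr) :
    ∑ ψ ∈ D.irr, (∑ χ : IrrCharacter G, D.secNum χ φ * conj (D.secNum χ ψ)) *
      ((Nat.card (Subgroup.centralizer ({y} : Set G)) : ℂ)⁻¹ *
        ∑ t : Subgroup.centralizer ({y} : Set G),
          if p ∣ orderOf t then 0 else η t * conj (ψ t)) = if φ = η then 1 else 0 := by
  classical
  set N := (Nat.card (Subgroup.centralizer ({y} : Set G)) : ℂ)⁻¹
  let f : Subgroup.centralizer ({y} : Set G) → ℂ := fun t => if p ∣ orderOf t then 0 else η t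
  have hfc : IsClassFunction (Subgroup.centralizer ({y} : Set G)) f := fun g h => by
    have e : orderOf (h * g * h⁻¹) = orderOf g := (MulAut.conj h).orderOf_eq g
    simp only [f, e,
      CfsgLib.CharTheory.IsGeneralizedCharacter.isClassFunction (D.generalized η hη) g h]
  have key : ∀ g, ∑ f' ∈ D.irr, (∑ ψ ∈ D.irr, (∑ χ : IrrCharacter G,
      D.secNum χ f' * conj (D.secNum χ ψ)) * (N * ∑ t, if p ∣ orderOf t then 0
        else η t * conj (ψ t))) * f' g = η g := by
    intro g
    set s := S.reg g
    have hs : ¬ p ∣ orderOf s := (hH.reg_eq_self_iff _).1 (hH.reg_reg g)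
    calc _ = ∑ f' ∈ D.irr, (∑ ψ ∈ D.irr, (∑ χ : IrrCharacter G,
          D.secNum χ f' * conj (D.secNum χ ψ)) * (N * ∑ t, if p ∣ orderOf t then 0
            else η t * conj (ψ t))) * f' s :=
          Finset.sum_congr rfl fun f' hf' => by rw [D.apply_reg f' hf']
      _ = N * ∑ t, f t * ∑ χ : IrrCharacter G,
            (∑ f' ∈ D.irr, D.secNum χ f' * f' s) * conj (∑ ψ ∈ D.irr, D.secNum χ ψ * ψ t) := by
          have hite : ∀ (ψ : Subgroup.centralizer ({y} : Set G) → ℂ) t,
              (if p ∣ orderOf t then 0 else η t * conj (ψ t)) = f t * conj (ψ t) := fun ψ t => by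
            simp only [f, ite_mul, zero_mul]
          simp only [hite, map_sum, map_mul, Finset.mul_sum, Finset.sum_mul]
          rw [Finset.sum_comm, Finset.sum_comm_cycle]
          refine Finset.sum_congr rfl fun t _ => ?_
          rw [Finset.sum_comm_cycle]
          refine Finset.sum_congr rfl fun χ _ => Finset.sum_congr rfl fun ψ _ =>
            Finset.sum_congr rfl fun f' _ => ?_
          ring
      _ = N * ∑ t, f t * ∑ ξ : IrrCharacter (Subgroup.centralizer ({y} : Set G)),
            (ξ : _ → ℂ) s * conj ((ξ : _ → ℂ) t) := by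
          congr 1
          refine Finset.sum_congr rfl fun t _ => ?_
          by_cases ht : p ∣ orderOf t
          · simp [f, ht]
          congr 1
          simp only [← D.apply_eq_sum_secNum hH _ hs, ← D.apply_eq_sum_secNum hH _ ht]
          rw [sum_irr_eq_of_isPPart y
            (isPPart_mul (commute_cenElem y s) (by rw [← Subgroup.orderOf_coe]; exact hy) hs)
            (isPPart_mul (commute_cenElem y t) (by rw [← Subgroup.orderOf_coe]; exact hy) ht)]
          refine Finset.sum_congr rfl fun ξ _ => ?_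
          obtain ⟨h1, h2⟩ := centralVal_spec ξ (commute_cenElem y)
          have hnorm := norm_eq_one_of_pow_eq_one' (isOfFinOrder_of_finite _).orderOf_pos.ne' h1
          rw [h2, h2, map_mul, mul_mul_mul_comm, Complex.mul_conj', hnorm]
          simp
      _ = f s := by
          conv_rhs => rw [congrFun (eq_sum_classInner hfc) s]
          simp only [Finset.sum_apply, Pi.smul_apply, smul_eq_mul, classInner, Finset.mul_sum,
            Finset.sum_mul, N]
          rw [Finset.sum_comm]
          exact Finset.sum_congr rfl fun ξ _ => Finset.sum_congr rfl fun t _ => by ring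
      _ = η g := by
          simp only [f, if_neg hs]
          exact D.apply_reg η hη g
  refine sub_eq_zero.1 (D.indep (fun f' => (∑ ψ ∈ D.irr, (∑ χ : IrrCharacter G,
      D.secNum χ f' * conj (D.secNum χ ψ)) * (N * ∑ t, if p ∣ orderOf t then 0
        else η t * conj (ψ t))) - if f' = η then 1 else 0) (fun g => ?_) φ hφ)
  simp only [sub_mul, Finset.sum_sub_distrib, key g, ite_mul, one_mul, zero_mul,
    Finset.sum_ite_eq', if_pos hη, sub_self]

include D in
/-- On a section fixed by an automorphism of the centralizer, a block contributes the number of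
its fixed Brauer characters. -/
theorem exists_natCast_eq_sum [Fintype (IrrCharacter G)] {B : Set (IrrCharacter G)}
    [DecidablePred (· ∈ B)] (hB : IsPBlock M B)
    (α : Subgroup.centralizer ({y} : Set G) ≃* Subgroup.centralizer ({y} : Set G)) :
    ∃ N : ℕ, (∑ s : Subgroup.centralizer ({y} : Set G), if p ∣ orderOf s then (0 : ℂ) else
      ∑ χ ∈ univ.filter (· ∈ B),
        (χ : G → ℂ) ((cenElem y * α s : Subgroup.centralizer ({y} : Set G)) : G) *
          conj ((χ : G → ℂ) ((cenElem y * s : Subgroup.centralizer ({y} : Set G)) : G))) = N := by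
  classical
  refine ⟨Nat.card (Subgroup.centralizer ({y} : Set G)) * (D.irr.filter fun φ =>
    (∃ χ ∈ B, D.secNum χ φ ≠ 0) ∧ (fun g => φ (α g)) = φ).card, ?_⟩
  set N := (Nat.card (Subgroup.centralizer ({y} : Set G)) : ℂ) with hN
  have hN0 : N ≠ 0 := Nat.cast_ne_zero.2 Nat.card_pos.ne'
  let C : (Subgroup.centralizer ({y} : Set G) → ℂ) → (Subgroup.centralizer ({y} : Set G) → ℂ) → ℂ :=
    fun φ ψ => ∑ χ ∈ univ.filter (· ∈ B), D.secNum χ φ * conj (D.secNum χ ψ)
  let Γ : (Subgroup.centralizer ({y} : Set G) → ℂ) → (Subgroup.centralizer ({y} : Set G) → ℂ) → ℂ :=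
    fun η ψ => N⁻¹ * ∑ t, if p ∣ orderOf t then 0 else η t * conj (ψ t)
  have hA : ∀ φ ∈ D.irr, ∀ η ∈ D.irr, ∑ ψ ∈ D.irr, C φ ψ * Γ η ψ =
      if φ = η ∧ ∃ χ ∈ B, D.secNum χ φ ≠ 0 then 1 else 0 := by
    intro φ hφ η hη
    by_cases hex : ∃ χ ∈ B, D.secNum χ φ ≠ 0
    · obtain ⟨χ₁, hχ₁, hn⟩ := hex
      rw [← if_congr (iff_self_and.2 fun _ => (⟨χ₁, hχ₁, hn⟩ : ∃ χ ∈ B, D.secNum χ φ ≠ 0)) rfl rfl,
        ← D.sum_secNum_pairing hH hy hφ hη]
      refine Finset.sum_congr rfl fun ψ _ => ?_
      congr 1
      refine Finset.sum_subset (Finset.subset_univ _) fun χ _ hχ => ?_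
      rw [(D.secNum_eq_zero_or hH hy hB hχ₁ (by simpa using hχ) hφ).resolve_left hn, zero_mul]
    · rw [if_neg fun h => hex h.2]
      push Not at hex
      refine Finset.sum_eq_zero fun ψ _ => ?_
      rw [show C φ ψ = 0 from Finset.sum_eq_zero fun χ hχ => by
        rw [hex χ (mem_filter.1 hχ).2, zero_mul], zero_mul]
  calc _ = ∑ s, if p ∣ orderOf s then 0 else
        ∑ φ ∈ D.irr, ∑ ψ ∈ D.irr, C φ ψ * (φ (α s) * conj (ψ s)) := by
        refine Finset.sum_congr rfl fun s _ => ?_
        split_ifs with hs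
        · rfl
        rw [Finset.sum_congr rfl fun χ _ => by
          rw [D.apply_eq_sum_secNum hH χ (show ¬ p ∣ orderOf (α s) by rwa [α.orderOf_eq]),
            D.apply_eq_sum_secNum hH χ hs]]
        simp only [C, map_sum, map_mul, Finset.mul_sum, Finset.sum_mul]
        conv_rhs => enter [2, φ]; rw [Finset.sum_comm]
        rw [Finset.sum_comm (s := D.irr)]
        refine Finset.sum_congr rfl fun χ _ => ?_
        rw [Finset.sum_comm]
        exact Finset.sum_congr rfl fun φ _ => Finset.sum_congr rfl fun ψ _ => by ring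
    _ = N * ∑ φ ∈ D.irr, ∑ ψ ∈ D.irr, C φ ψ * Γ (fun g => φ (α g)) ψ := by
        simp only [Γ, Finset.mul_sum, mul_ite, mul_zero]
        conv_rhs => enter [2, φ]; rw [Finset.sum_comm]
        rw [Finset.sum_comm (s := D.irr)]
        refine Finset.sum_congr rfl fun s _ => ?_
        by_cases hs : p ∣ orderOf s
        · simp [hs]
        simp only [if_neg hs]
        refine Finset.sum_congr rfl fun φ _ => Finset.sum_congr rfl fun ψ _ => ?_
        field_simp
    _ = N * ∑ φ ∈ D.irr,
          if (∃ χ ∈ B, D.secNum χ φ ≠ 0) ∧ (fun g => φ (α g)) = φ then 1 else 0 := by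
        refine congrArg _ (Finset.sum_congr rfl fun φ hφ => ?_)
        rw [hA φ hφ _ (D.comp_mem α φ hφ)]
        exact if_congr ⟨fun h => ⟨h.2, h.1.symm⟩, fun h => ⟨h.2.symm, h.1⟩⟩ rfl rfl
    _ = _ := by rw [Finset.sum_boole, Nat.cast_mul]

end CfsgLib.IBr.PSys.Decomposition
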